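import Cfsg.Agent.H97.JmDefs
import Cfsg.Agent.H49.JU6
import Cfsg.Agent.H46.J4B
import Cfsg.Agent.H17.J4Simple

/-!
# The matrix model of a group of Janko-four type
-/

set_option autoImplicit false

namespace Cfsg.Agent.H97.JM

universe u

theorem pX6 : X6.{u} := by
  intro G _ _ _ hG hJ
  obtain ⟨e⟩ := H49.JU.isoJ4 H46.J4.hub hG hJ
  refine ⟨H17.J4R.rho.comp e.toMonoidHom, (H17.J4R.Hub.injective H46.J4.hub).comp e.injective,
    ⟨e.symm H17.J4R.jx, ?_⟩, ⟨e.symm H17.J4R.jy, ?_⟩, ⟨e.symm H17.J4R.jt, ?_⟩⟩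
  · simpa using H17.J4R.rho_x
  · simpa using H17.J4R.rho_y
  · simpa using H17.J4R.rho_t

end Cfsg.Agent.H97.JM
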