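import Cfsg.Agent.H17.LPDefs

/-! Project LP, piece WTBIG. -/

set_option autoImplicit false

namespace Cfsg.Agent.H52.LpWtBig

open Cfsg Subgroup Matrix Cfsg.Agent.H17.LP

universe u

theorem card_SL5 : Nat.card SL5 = 9999360 := by
  have h : Nat.card SL5 = Nat.card (GL (Fin 5) F) := by
    refine Nat.card_eq_of_bijective (Matrix.SpecialLinearGroup.toGL : SL5 →* GL (Fin 5) F)
      ⟨Matrix.SpecialLinearGroup.toGL_injective, fun g => ?_⟩
    have h1 : ∀ x : F, x ≠ 0 → x = 1 := by decide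
    exact ⟨⟨g.1, h1 _ (Matrix.GeneralLinearGroup.det_ne_zero g)⟩,
      Units.ext (Matrix.SpecialLinearGroup.coe_GL_coe_matrix _)⟩
  haveI : Fact (Nat.Prime 2) := ⟨Nat.prime_two⟩
  rw [h, Matrix.card_GL_field]
  simp [Fin.prod_univ_five]

abbrev D2 := {x : F × F × F × F // x.1 * x.2.2.2 + x.2.1 * x.2.2.1 = 1}

theorem card_T : Nat.card ((F × F × F × F × F × F × F × F) × D2 × D2) = 9216 := by
  have h : Nat.card D2 = 6 := by rw [Nat.card_eq_fintype_card]; decide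
  simp only [Nat.card_prod, h, Nat.card_zmod]

theorem d2 : ∀ a b c d a' b' c' d' : F, a * a' + b * c' = 1 → a * b' + b * d' = 0 →
    c * a' + d * c' = 0 → c * b' + d * d' = 1 → a * d + b * c = 1 := by decide

theorem d1 : ∀ a a' : F, a * a' = 1 → a = 1 := by decide

theorem ent (g : SL5) (i j : Fin 5) : g.1 i 0 * (g⁻¹).1 0 j + g.1 i 1 * (g⁻¹).1 1 j +
    g.1 i 2 * (g⁻¹).1 2 j + g.1 i 3 * (g⁻¹).1 3 j + g.1 i 4 * (g⁻¹).1 4 j = (1 : M5) i j := by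
  have h : g.1 * (g⁻¹).1 = 1 := by rw [← coe_mul', mul_inv_cancel]; rfl
  rw [← h, Matrix.mul_apply, Fin.sum_univ_five]

theorem bound1 (P : Subgroup SL5)
    (h1 : ∀ g ∈ P, ∀ a b : Fin 5, (b : ℕ) < 1 → 1 ≤ (a : ℕ) → g.1 a b = 0)
    (h3 : ∀ g ∈ P, ∀ a b : Fin 5, (b : ℕ) < 3 → 3 ≤ (a : ℕ) → g.1 a b = 0) :
    Nat.card P ≤ 9216 := by
  have hz : ∀ g ∈ P, g.1 1 0 = 0 ∧ g.1 2 0 = 0 ∧ g.1 3 0 = 0 ∧ g.1 4 0 = 0 ∧ g.1 3 1 = 0 ∧
      g.1 3 2 = 0 ∧ g.1 4 1 = 0 ∧ g.1 4 2 = 0 := fun g hg =>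
    ⟨h1 g hg _ _ (by decide) (by decide), h1 g hg _ _ (by decide) (by decide),
      h1 g hg _ _ (by decide) (by decide), h1 g hg _ _ (by decide) (by decide),
      h3 g hg _ _ (by decide) (by decide), h3 g hg _ _ (by decide) (by decide),
      h3 g hg _ _ (by decide) (by decide), h3 g hg _ _ (by decide) (by decide)⟩
  have hd : ∀ g ∈ P, g.1 0 0 = 1 ∧ g.1 1 1 * g.1 2 2 + g.1 1 2 * g.1 2 1 = 1 ∧
      g.1 3 3 * g.1 4 4 + g.1 3 4 * g.1 4 3 = 1 := by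
    intro g hg
    obtain ⟨a1, a2, a3, a4, a5, a6, a7, a8⟩ := hz g hg
    obtain ⟨b1, b2, b3, b4, b5, b6, b7, b8⟩ := hz g⁻¹ (P.inv_mem hg)
    refine ⟨d1 _ ((g⁻¹).1 0 0) ?_,
      d2 _ _ _ _ ((g⁻¹).1 1 1) ((g⁻¹).1 1 2) ((g⁻¹).1 2 1) ((g⁻¹).1 2 2) ?_ ?_ ?_ ?_,
      d2 _ _ _ _ ((g⁻¹).1 3 3) ((g⁻¹).1 3 4) ((g⁻¹).1 4 3) ((g⁻¹).1 4 4) ?_ ?_ ?_ ?_⟩
    · have := ent g 0 0; rw [b1, b2, b3, b4] at this; simpa using this
    · have := ent g 1 1; rw [a1, b5, b7] at this; simpa using this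
    · have := ent g 1 2; rw [a1, b6, b8] at this; simpa using this
    · have := ent g 2 1; rw [a2, b5, b7] at this; simpa using this
    · have := ent g 2 2; rw [a2, b6, b8] at this; simpa using this
    · have := ent g 3 3; rw [a3, a5, a6] at this; simpa using this
    · have := ent g 3 4; rw [a3, a5, a6] at this; simpa using this
    · have := ent g 4 3; rw [a4, a7, a8] at this; simpa using this
    · have := ent g 4 4; rw [a4, a7, a8] at this; simpa using this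
  let f : P → (F × F × F × F × F × F × F × F) × D2 × D2 := fun g =>
    ((g.1.1 0 1, g.1.1 0 2, g.1.1 0 3, g.1.1 0 4, g.1.1 1 3, g.1.1 1 4, g.1.1 2 3, g.1.1 2 4),
      ⟨(g.1.1 1 1, g.1.1 1 2, g.1.1 2 1, g.1.1 2 2), (hd g g.2).2.1⟩,
      ⟨(g.1.1 3 3, g.1.1 3 4, g.1.1 4 3, g.1.1 4 4), (hd g g.2).2.2⟩)
  rw [← card_T]
  refine Nat.card_le_card_of_injective f (fun g g' h => ?_)
  simp only [f, Prod.mk.injEq, Subtype.mk.injEq] at h
  obtain ⟨⟨c1, c2, c3, c4, c5, c6, c7, c8⟩, ⟨c9, c10, c11, c12⟩, c13, c14, c15, c16⟩ := h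
  obtain ⟨a1, a2, a3, a4, a5, a6, a7, a8⟩ := hz g g.2
  obtain ⟨b1, b2, b3, b4, b5, b6, b7, b8⟩ := hz g' g'.2
  have a0 := (hd g g.2).1
  have b0 := (hd g' g'.2).1
  apply Subtype.ext
  apply Subtype.ext
  ext i j
  fin_cases i <;> fin_cases j <;> first | assumption | exact a0.trans b0.symm | exact a1.trans b1.symm | exact a2.trans b2.symm | exact a3.trans b3.symm | exact a4.trans b4.symm | exact a5.trans b5.symm | exact a6.trans b6.symm | exact a7.trans b7.symm | exact a8.trans b8.symm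

theorem bound2 (P : Subgroup SL5)
    (h2 : ∀ g ∈ P, ∀ a b : Fin 5, (b : ℕ) < 2 → 2 ≤ (a : ℕ) → g.1 a b = 0)
    (h3 : ∀ g ∈ P, ∀ a b : Fin 5, (b : ℕ) < 3 → 3 ≤ (a : ℕ) → g.1 a b = 0) :
    Nat.card P ≤ 9216 := by
  have hz : ∀ g ∈ P, g.1 2 0 = 0 ∧ g.1 2 1 = 0 ∧ g.1 3 0 = 0 ∧ g.1 4 0 = 0 ∧ g.1 3 1 = 0 ∧
      g.1 3 2 = 0 ∧ g.1 4 1 = 0 ∧ g.1 4 2 = 0 := fun g hg =>
    ⟨h2 g hg _ _ (by decide) (by decide), h2 g hg _ _ (by decide) (by decide),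
      h3 g hg _ _ (by decide) (by decide), h3 g hg _ _ (by decide) (by decide),
      h3 g hg _ _ (by decide) (by decide), h3 g hg _ _ (by decide) (by decide),
      h3 g hg _ _ (by decide) (by decide), h3 g hg _ _ (by decide) (by decide)⟩
  have hd : ∀ g ∈ P, g.1 2 2 = 1 ∧ g.1 0 0 * g.1 1 1 + g.1 0 1 * g.1 1 0 = 1 ∧
      g.1 3 3 * g.1 4 4 + g.1 3 4 * g.1 4 3 = 1 := by
    intro g hg
    obtain ⟨a1, a2, a3, a4, a5, a6, a7, a8⟩ := hz g hg
    obtain ⟨b1, b2, b3, b4, b5, b6, b7, b8⟩ := hz g⁻¹ (P.inv_mem hg)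
    refine ⟨d1 _ ((g⁻¹).1 2 2) ?_,
      d2 _ _ _ _ ((g⁻¹).1 0 0) ((g⁻¹).1 0 1) ((g⁻¹).1 1 0) ((g⁻¹).1 1 1) ?_ ?_ ?_ ?_,
      d2 _ _ _ _ ((g⁻¹).1 3 3) ((g⁻¹).1 3 4) ((g⁻¹).1 4 3) ((g⁻¹).1 4 4) ?_ ?_ ?_ ?_⟩
    · have := ent g 2 2; rw [a1, a2, b6, b8] at this; simpa using this
    · have := ent g 0 0; rw [b1, b3, b4] at this; simpa using this
    · have := ent g 0 1; rw [b2, b5, b7] at this; simpa using this
    · have := ent g 1 0; rw [b1, b3, b4] at this; simpa using this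
    · have := ent g 1 1; rw [b2, b5, b7] at this; simpa using this
    · have := ent g 3 3; rw [a3, a5, a6] at this; simpa using this
    · have := ent g 3 4; rw [a3, a5, a6] at this; simpa using this
    · have := ent g 4 3; rw [a4, a7, a8] at this; simpa using this
    · have := ent g 4 4; rw [a4, a7, a8] at this; simpa using this
  let f : P → (F × F × F × F × F × F × F × F) × D2 × D2 := fun g =>
    ((g.1.1 0 2, g.1.1 0 3, g.1.1 0 4, g.1.1 1 2, g.1.1 1 3, g.1.1 1 4, g.1.1 2 3, g.1.1 2 4),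
      ⟨(g.1.1 0 0, g.1.1 0 1, g.1.1 1 0, g.1.1 1 1), (hd g g.2).2.1⟩,
      ⟨(g.1.1 3 3, g.1.1 3 4, g.1.1 4 3, g.1.1 4 4), (hd g g.2).2.2⟩)
  rw [← card_T]
  refine Nat.card_le_card_of_injective f (fun g g' h => ?_)
  simp only [f, Prod.mk.injEq, Subtype.mk.injEq] at h
  obtain ⟨⟨c1, c2, c3, c4, c5, c6, c7, c8⟩, ⟨c9, c10, c11, c12⟩, c13, c14, c15, c16⟩ := h
  obtain ⟨a1, a2, a3, a4, a5, a6, a7, a8⟩ := hz g g.2
  obtain ⟨b1, b2, b3, b4, b5, b6, b7, b8⟩ := hz g' g'.2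
  have a0 := (hd g g.2).1
  have b0 := (hd g' g'.2).1
  apply Subtype.ext
  apply Subtype.ext
  ext i j
  fin_cases i <;> fin_cases j <;> first | assumption | exact a0.trans b0.symm | exact a1.trans b1.symm | exact a2.trans b2.symm | exact a3.trans b3.symm | exact a4.trans b4.symm | exact a5.trans b5.symm | exact a6.trans b6.symm | exact a7.trans b7.symm | exact a8.trans b8.symm

theorem wtBig (h : WtParStmt) : WtBigStmt.{u} := by
  intro W _ _ _ ρ v I hw h3 h12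
  letI act : MulAction SL5 W := MulAction.compHom W (ρ : SL5 →* Module.End F W)
  let P : Subgroup SL5 := MulAction.stabilizer SL5 v
  have hP : ∀ g, g ∈ P ↔ ρ g v = v := fun g => Iff.rfl
  have hX : ∀ i ∈ [1, 2, 3, 4], X i (i + 1) ∈ P := fun i hi => (hP _).2 (hw.2.1 i hi)
  have hn : ∀ i ∈ [1, 2, 3, 4], I i = true → X (i + 1) i ∉ P := by
    intro i hi hI hm
    have h1 := hw.2.2 i hi
    rw [if_pos hI, (hP _).1 hm, (hP _).1 (P.mul_mem (hX i hi) hm)] at h1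
    exact hw.1 (by simpa using h1)
  have hc : Nat.card P ≤ 9216 := by
    have k3 := h P hX 3 (by simp) (hn 3 (by simp) h3)
    rcases h12 with h1 | h2
    · exact bound1 P (h P hX 1 (by simp) (hn 1 (by simp) h1)) k3
    · exact bound2 P (h P hX 2 (by simp) (hn 2 (by simp) h2)) k3
  have hi : P.index ≤ Nat.card W := by
    rw [MulAction.index_stabilizer]
    exact Set.ncard_le_card _
  have hm := P.card_mul_index
  rw [card_SL5] at hm
  by_contra hlt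
  have h1 : Nat.card P * P.index ≤ 9216 * 1024 := Nat.mul_le_mul hc (hi.trans (not_lt.1 hlt))
  omega

end Cfsg.Agent.H52.LpWtBig
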